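import Cfsg.Agent.H58.Q46.JcBasic

/-!
# S2946-BACK (helper54, for helper52)
-/

set_option autoImplicit false

namespace Cfsg.Agent.H58.Q46.H54.Jc

open Cfsg Cfsg.Agent.H29 Cfsg.Agent.H58.Q46.H29 Cfsg.Agent.H58.Q46.H52.Jc

variable {G : Type*} [Group G] [Finite G] {X W S : Subgroup G} {u x : G}

theorem back (h : Cfg X W S u x) {a₁ a₂ : G} (ha₁ : a₁ ∈ nJ 2 (S.map (MulAut.conj x).toMonoidHom))
    (ha₁W : a₁ ∉ Subgroup.centralizer (W : Set G))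
    (ha₂ : a₂ ∈ nJ 2 (S.map (MulAut.conj (x * x)).toMonoidHom)) : a₁ * a₂ * a₁⁻¹ ∈ nJ 2 S := by
  have h₂ := h.conj h.xx_mem
  have ha₁S : a₁ ∈ S.map (MulAut.conj x).toMonoidHom := nJ_le 2 _ ha₁
  have ha₁X : a₁ ∈ X := (h.conj h.hx).hSX ha₁S
  have h₃ := h₂.conj ha₁X
  have hu' : a₁ * (x * x * u * (x * x)⁻¹) * a₁⁻¹ = u := by
    rw [h.xx_u]; exact h.act1_t ha₁S ha₁W
  have hSeq : (S.map (MulAut.conj (x * x)).toMonoidHom).map (MulAut.conj a₁).toMonoidHom = S := by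
    ext g
    rw [h₃.hS g, h.hS g, hu']
  have h4 := nJ_map (MulAut.conj a₁) 2 (S.map (MulAut.conj (x * x)).toMonoidHom)
  rw [hSeq] at h4
  rw [← h4]
  exact ⟨a₂, ha₂, rfl⟩

example (h : Cfg X W S u x) {a₁ a₂ : G} (ha₁ : a₁ ∈ nJ 2 (S.map (MulAut.conj x).toMonoidHom))
    (ha₁W : a₁ ∉ Subgroup.centralizer (W : Set G))
    (ha₂ : a₂ ∈ nJ 2 (S.map (MulAut.conj (x * x)).toMonoidHom)) : a₁ * a₂ * a₁⁻¹ ∈ nJ 2 S :=
  back h ha₁ ha₁W ha₂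

end Cfsg.Agent.H58.Q46.H54.Jc
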