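import Cfsg.Agent.H58.Q46.JcBasic

/-!
# S2946-CROSSA (helper52's team project): action of a conjugate `J` on `nZ 2 S` (helper31)
-/

set_option autoImplicit false

namespace Cfsg.Agent.H58.Q46.H31.Jc

open Cfsg Cfsg.Agent.H29 Cfsg.Agent.H58.Q46.H29 Cfsg.Agent.H58.Q46.H52.Jc

variable {G : Type*} [Group G] [Finite G] {X W S : Subgroup G} {u x : G}

/-- elements of `W ⊔ K` are products when `K` centralizes `W` -/
theorem mem_sup_cent {W K : Subgroup G} (hK : K ≤ Subgroup.centralizer (W : Set G)) {m : G}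
    (hm : m ∈ W ⊔ K) : ∃ w ∈ W, ∃ b ∈ K, m = w * b := by
  rw [Subgroup.sup_eq_closure] at hm
  induction hm using Subgroup.closure_induction with
  | mem y hy =>
    rcases hy with hy | hy
    · exact ⟨y, hy, 1, K.one_mem, (mul_one y).symm⟩
    · exact ⟨1, W.one_mem, y, hy, (one_mul y).symm⟩
  | one => exact ⟨1, W.one_mem, 1, K.one_mem, (mul_one 1).symm⟩
  | mul y z _ _ hy hz =>
    obtain ⟨w1, hw1, b1, hb1, rfl⟩ := hy
    obtain ⟨w2, hw2, b2, hb2, rfl⟩ := hz
    refine ⟨w1 * w2, W.mul_mem hw1 hw2, b1 * b2, K.mul_mem hb1 hb2, ?_⟩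
    have h1 : w2 * b1 = b1 * w2 := Subgroup.mem_centralizer_iff.mp (hK hb1) w2 hw2
    calc w1 * b1 * (w2 * b2) = w1 * (b1 * w2) * b2 := by group
      _ = w1 * (w2 * b1) * b2 := by rw [h1]
      _ = w1 * w2 * (b1 * b2) := by group
  | inv y _ hy =>
    obtain ⟨w, hw, b, hb, rfl⟩ := hy
    refine ⟨w⁻¹, W.inv_mem hw, b⁻¹, K.inv_mem hb, ?_⟩
    have h1 : w⁻¹ * b⁻¹ = b⁻¹ * w⁻¹ :=
      Subgroup.mem_centralizer_iff.mp (hK (K.inv_mem hb)) w⁻¹ (W.inv_mem hw)
    rw [mul_inv_rev, h1]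

/-- a member of `nMax 2 (S^g)` centralizing `W` is a member of `nMax 2 S` -/
theorem nMax_of_conj (h : Cfg X W S u x) {g : G} (hg : g ∈ X) {B : Subgroup G}
    (hB : B ∈ nMax 2 (S.map (MulAut.conj g).toMonoidHom))
    (hBW : B ≤ Subgroup.centralizer (W : Set G)) : B ∈ nMax 2 S := by
  have h' := h.conj hg
  have hBS : B ≤ S := fun b hb => h.hRS (h'.hSX (hB.1.1 hb)) (hBW hb)
  refine ⟨⟨hBS, hB.1.2⟩, fun C hC => ?_⟩
  have h1 := hB.2 _ (nAb_map (MulAut.conj g) hC)
  rwa [Subgroup.card_map_of_injective (MulAut.conj g).injective] at h1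

theorem cross_mem (h : Cfg X W S u x) {g : G} (hg : g ∈ X)
    (hrep : ∀ A ∈ nMax 2 (S.map (MulAut.conj g).toMonoidHom),
      ¬ A ≤ Subgroup.centralizer (W : Set G) →
      W ⊔ (A ⊓ Subgroup.centralizer (W : Set G)) ∈ nMax 2 (S.map (MulAut.conj g).toMonoidHom))
    {A : Subgroup G} (hA : A ∈ nMax 2 (S.map (MulAut.conj g).toMonoidHom)) {m : G}
    (hm : m ∈ nZ 2 S) (hmW : m ∈ Subgroup.centralizer (W : Set G)) {a : G} (ha : a ∈ A) :
    a * m * a⁻¹ = m ∨ a * m * a⁻¹ = m * (g * u * g⁻¹) := by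
  have h' := h.conj hg
  have hWc : W ≤ Subgroup.centralizer (W : Set G) := by
    intro a ha
    rw [Subgroup.mem_centralizer_iff]
    intro b hb
    exact h.comm hb ha
  by_cases hAW : A ≤ Subgroup.centralizer (W : Set G)
  · left
    have hA' : A ∈ nMax 2 S := nMax_of_conj h hg hA hAW
    have h1 : a ∈ nJ 2 S := le_nJ hA' ha
    have h2 := Subgroup.mem_centralizer_iff.mp (nZ_le_centralizer_nJ 2 S hm) a h1
    rw [h2, mul_inv_cancel_right]
  · have hB := hrep A hA hAW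
    have hBW : W ⊔ (A ⊓ Subgroup.centralizer (W : Set G)) ≤ Subgroup.centralizer (W : Set G) :=
      sup_le hWc inf_le_right
    have hB' := nMax_of_conj h hg hB hBW
    have hmB := nZ_le_of_mem_nMax hB' hm
    obtain ⟨w, hw, b, hb, rfl⟩ := mem_sup_cent (inf_le_right) hmB
    have hAc : IsMulCommutative A := hA.1.2.1
    have hab : a * b = b * a := setLike_mul_comm (s := A) ha hb.1
    have hab' : b * a⁻¹ = a⁻¹ * b := (Commute.inv_right (show Commute b a from hab.symm)).eq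
    have hconj : a * (w * b) * a⁻¹ = (a * w * a⁻¹) * b := by
      calc a * (w * b) * a⁻¹ = a * w * (b * a⁻¹) := by group
        _ = a * w * (a⁻¹ * b) := by rw [hab']
        _ = (a * w * a⁻¹) * b := by group
    rw [hconj]
    by_cases haW : a ∈ Subgroup.centralizer (W : Set G)
    · left
      have h1 := Subgroup.mem_centralizer_iff.mp haW w hw
      rw [← h1, mul_inv_cancel_right]
    · have haS : a ∈ S.map (MulAut.conj g).toMonoidHom := hA.1.1 ha
      have hu' : g * u * g⁻¹ ∈ W := h'.hu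
      have hcomm_m : (g * u * g⁻¹) * (w * b) = (w * b) * (g * u * g⁻¹) :=
        Subgroup.mem_centralizer_iff.mp hmW _ hu'
      rcases h'.elems hw with rfl | rfl | rfl | rfl
      · left
        rw [mul_one, mul_inv_cancel]
      · left
        rw [h'.hSu haS]
      · right
        rw [h'.swap haS haW, ← hcomm_m]
        group
      · right
        rw [h'.swap' haS haW, ← hcomm_m]
        have h2 : (g * u * g⁻¹) * (g * u * g⁻¹) = 1 := h.hexp _ hu'
        calc x * (g * u * g⁻¹) * x⁻¹ * b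
            = ((g * u * g⁻¹) * (g * u * g⁻¹)) * (x * (g * u * g⁻¹) * x⁻¹) * b := by
              rw [h2, one_mul]
          _ = g * u * g⁻¹ * (g * u * g⁻¹ * (x * (g * u * g⁻¹) * x⁻¹) * b) := by group

end Cfsg.Agent.H58.Q46.H31.Jc
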