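import Cfsg.Agent.H58.Q46.JcBasic

set_option autoImplicit false

/-!
S2946 piece FIX (helper51, for helper52): `u ∈ Ω₁Z(J(S))` and `W ∩ Ω₁Z(J(S)) = ⟨u⟩`.
-/

namespace Cfsg.Agent.H58.Q46.H51.Jc

open Cfsg Cfsg.Agent.H29 Cfsg.Agent.H58.Q46.H29 Cfsg.Agent.H58.Q46.H52.Jc

variable {G : Type*} [Group G] [Finite G] {X W S : Subgroup G} {u x : G}

theorem u_mem_nZ (h : Cfg X W S u x) : u ∈ nZ 2 S := by
  have huS : u ∈ S := h.hWS h.hu
  have hcomm : ∀ s ∈ S, s * u = u * s := fun s hs => ((h.hS s).mp hs).2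
  have hZ : Subgroup.zpowers u ∈ nAb 2 S := by
    refine ⟨(Subgroup.zpowers_le).mpr huS, inferInstance, ?_⟩
    intro a ha
    obtain ⟨k, rfl⟩ := Subgroup.mem_zpowers_iff.mp ha
    rw [← zpow_natCast, ← zpow_mul, mul_comm, zpow_mul, zpow_natCast, h.sq h.hu, one_zpow]
  obtain ⟨A, hA⟩ := exists_mem_nMax 2 S
  have hle : Subgroup.zpowers u ≤ Subgroup.centralizer (A : Set G) := by
    rw [Subgroup.zpowers_le, Subgroup.mem_centralizer_iff]
    intro a ha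
    exact hcomm a (hA.1.1 ha)
  have huA : u ∈ A := absorb hA hZ hle (Subgroup.mem_zpowers u)
  rw [mem_nZ]
  refine ⟨le_nJ hA huA, ?_, h.sq h.hu⟩
  rw [Subgroup.mem_centralizer_iff]
  intro j hj
  exact hcomm j (nJ_le 2 S hj)

theorem nZ_inf (h : Cfg X W S u x) {w : G} (hw : w ∈ W) (hz : w ∈ nZ 2 S) : w = 1 ∨ w = u := by
  obtain ⟨j, hj, hjW⟩ := SetLike.not_le_iff_exists.mp h.hJ
  have hjS : j ∈ S := nJ_le 2 S hj
  have hjw : j * w = w * j := Subgroup.mem_centralizer_iff.mp (mem_nZ.mp hz).2.1 j hj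
  have hfix : j * w * j⁻¹ = w := by rw [hjw, mul_inv_cancel_right]
  rcases h.elems hw with e | e | e | e
  · exact Or.inl e
  · exact Or.inr e
  · exfalso
    have hs := h.swap hjS hjW
    rw [← e, hfix, e] at hs
    exact h.t_ne_v hs.symm
  · exfalso
    have hs := h.swap' hjS hjW
    rw [← e, hfix, e] at hs
    exact h.t_ne_v hs

section Check

example (h : Cfg X W S u x) : u ∈ nZ 2 S := u_mem_nZ h
example (h : Cfg X W S u x) {w : G} (hw : w ∈ W) (hz : w ∈ nZ 2 S) : w = 1 ∨ w = u := nZ_inf h hw hz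

end Check

end Cfsg.Agent.H58.Q46.H51.Jc
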