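import Cfsg.Agent.H29.Replace

set_option autoImplicit false
open Cfsg
open scoped commutatorElement Pointwise

/-!
# Thompson subgroups, internal form (helper29)

For a subgroup `D` of `G` and `n : ℕ`: `nAb n D` is the set of abelian subgroups of `D` all of
whose elements satisfy `a ^ n = 1` (`n = 0`: all abelian subgroups; `n = p`: the elementary abelian
ones), `nMax n D` those of largest order, `nJ n D` the subgroup they generate, and `nZ n D` the
elements `z` of `Z(nJ n D)` with `z ^ n = 1`.  Links to the Prelude definitions: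
`centerThompsonAOf_eq`, `omegaOne_centerThompsonOf_eq`, `omegaCenterThompson_map_eq`.
-/

namespace Cfsg.Agent.H58.Q46.H29
open Cfsg.Agent.H29

open Cfsg.Agent.H14

section NFamily

variable {G : Type*} [Group G]

/-- Abelian subgroups of `D` of exponent dividing `n`. -/
def nAb (n : ℕ) (D : Subgroup G) : Set (Subgroup G) :=
  {A | A ≤ D ∧ IsMulCommutative A ∧ ∀ a ∈ A, a ^ n = 1}

/-- Members of `nAb n D` of largest order. -/
def nMax (n : ℕ) (D : Subgroup G) : Set (Subgroup G) :=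
  {A | A ∈ nAb n D ∧ ∀ B ∈ nAb n D, Nat.card B ≤ Nat.card A}

/-- The Thompson subgroup `J_n(D)` generated by `nMax n D`. -/
def nJ (n : ℕ) (D : Subgroup G) : Subgroup G := sSup (nMax n D)

/-- `Ω_n(Z(J_n(D)))`: the elements `z` of the centre of `nJ n D` with `z ^ n = 1`. -/
def nZ (n : ℕ) (D : Subgroup G) : Subgroup G where
  carrier := {z | z ∈ nJ n D ∧ z ∈ Subgroup.centralizer (nJ n D : Set G) ∧ z ^ n = 1}
  one_mem' := ⟨one_mem _, one_mem _, one_pow _⟩
  mul_mem' := by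
    rintro x y ⟨hx1, hx2, hx3⟩ ⟨hy1, hy2, hy3⟩
    refine ⟨mul_mem hx1 hy1, mul_mem hx2 hy2, ?_⟩
    have hc : Commute x y := Subgroup.mem_centralizer_iff.mp hy2 x hx1
    rw [hc.mul_pow, hx3, hy3, one_mul]
  inv_mem' := by
    rintro x ⟨hx1, hx2, hx3⟩
    exact ⟨inv_mem hx1, inv_mem hx2, by rw [inv_pow, hx3, inv_one]⟩

variable {n : ℕ} {D : Subgroup G}

theorem mem_nZ {z : G} :
    z ∈ nZ n D ↔ z ∈ nJ n D ∧ z ∈ Subgroup.centralizer (nJ n D : Set G) ∧ z ^ n = 1 := Iff.rfl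

theorem nJ_le (n : ℕ) (D : Subgroup G) : nJ n D ≤ D := sSup_le (fun _ hA => hA.1.1)

theorem nZ_le_nJ (n : ℕ) (D : Subgroup G) : nZ n D ≤ nJ n D := fun _ hz => hz.1

theorem nZ_le (n : ℕ) (D : Subgroup G) : nZ n D ≤ D := (nZ_le_nJ n D).trans (nJ_le n D)

theorem le_nJ {A : Subgroup G} (hA : A ∈ nMax n D) : A ≤ nJ n D := le_sSup hA

theorem pow_eq_one_of_mem_nZ {z : G} (hz : z ∈ nZ n D) : z ^ n = 1 := hz.2.2

theorem nZ_le_centralizer_nJ (n : ℕ) (D : Subgroup G) :
    nZ n D ≤ Subgroup.centralizer (nJ n D : Set G) := fun _ hz => hz.2.1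

theorem nZ_comm (n : ℕ) (D : Subgroup G) : IsMulCommutative (nZ n D) := by
  rw [← Subgroup.le_centralizer_iff_isMulCommutative]
  exact (nZ_le_centralizer_nJ n D).trans (Subgroup.centralizer_le (nZ_le_nJ n D))

theorem bot_mem_nAb (n : ℕ) (D : Subgroup G) : (⊥ : Subgroup G) ∈ nAb n D := by
  refine ⟨bot_le, ?_, ?_⟩
  · rw [← Subgroup.le_centralizer_iff_isMulCommutative]; exact bot_le
  · intro a ha
    rw [Subgroup.mem_bot] at ha
    rw [ha, one_pow]

theorem exists_mem_nMax [Finite G] (n : ℕ) (D : Subgroup G) : ∃ A, A ∈ nMax n D := by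
  have : Nonempty {A : Subgroup G // A ∈ nAb n D} := ⟨⟨⊥, bot_mem_nAb n D⟩⟩
  obtain ⟨A, hA⟩ := Finite.exists_max
    (fun A : {A : Subgroup G // A ∈ nAb n D} => Nat.card (A : Subgroup G))
  exact ⟨A.1, A.2, fun B hB => hA ⟨B, hB⟩⟩

theorem pow_eq_one_of_mem_sup {A Y : Subgroup G} (hc : IsMulCommutative ↥(A ⊔ Y)) {n : ℕ}
    (hA : ∀ a ∈ A, a ^ n = 1) (hY : ∀ y ∈ Y, y ^ n = 1) : ∀ x ∈ A ⊔ Y, x ^ n = 1 := by
  intro x hx
  rw [Subgroup.sup_eq_closure] at hx
  induction hx using Subgroup.closure_induction with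
  | mem x hx =>
    rcases hx with hx | hx
    · exact hA x hx
    · exact hY x hx
  | one => exact one_pow _
  | mul x y hx hy hx' hy' =>
    rw [← Subgroup.sup_eq_closure] at hx hy
    have hcomm : Commute x y := setLike_mul_comm (s := A ⊔ Y) hx hy
    rw [hcomm.mul_pow, hx', hy', one_mul]
  | inv x hx hx' => rw [inv_pow, hx', inv_one]

/-- A member of `nMax n D` absorbs every member of `nAb n D` centralizing it. -/
theorem absorb [Finite G] {A Y : Subgroup G} (hA : A ∈ nMax n D) (hY : Y ∈ nAb n D)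
    (hYA : Y ≤ Subgroup.centralizer (A : Set G)) : Y ≤ A := by
  have hc := sup_isMulCommutative A Y hA.1.2.1 hY.2.1 hYA
  have h1 : A ⊔ Y ∈ nAb n D :=
    ⟨sup_le hA.1.1 hY.1, hc, pow_eq_one_of_mem_sup hc hA.1.2.2 hY.2.2⟩
  have h2 : A = A ⊔ Y := Subgroup.eq_of_le_of_card_ge le_sup_left (hA.2 _ h1)
  rw [h2]
  exact le_sup_right

theorem nZ_mem_nAb (n : ℕ) (D : Subgroup G) : nZ n D ∈ nAb n D :=
  ⟨nZ_le n D, nZ_comm n D, fun _ hz => hz.2.2⟩

/-- `nZ n D` lies in every member of `nMax n D`. -/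
theorem nZ_le_of_mem_nMax [Finite G] {A : Subgroup G} (hA : A ∈ nMax n D) : nZ n D ≤ A :=
  absorb hA (nZ_mem_nAb n D)
    ((nZ_le_centralizer_nJ n D).trans (Subgroup.centralizer_le (le_nJ hA)))

theorem nAb_mono {D₁ : Subgroup G} (h : D₁ ≤ D) : nAb n D₁ ⊆ nAb n D :=
  fun _ hA => ⟨hA.1.trans h, hA.2⟩

theorem nMax_of_le {A D₁ : Subgroup G} (hA : A ∈ nMax n D) (hAD₁ : A ≤ D₁) (hD₁ : D₁ ≤ D) :
    A ∈ nMax n D₁ :=
  ⟨⟨hAD₁, hA.1.2⟩, fun B hB => hA.2 B (nAb_mono hD₁ hB)⟩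

theorem nMax_subset {A D₁ : Subgroup G} (hA : A ∈ nMax n D) (hAD₁ : A ≤ D₁) (hD₁ : D₁ ≤ D) :
    nMax n D₁ ⊆ nMax n D := by
  intro A' hA'
  refine ⟨nAb_mono hD₁ hA'.1, fun B hB => ?_⟩
  exact (hA.2 B hB).trans (hA'.2 A ⟨hAD₁, hA.1.2⟩)

theorem nJ_le_nJ {A D₁ : Subgroup G} (hA : A ∈ nMax n D) (hAD₁ : A ≤ D₁) (hD₁ : D₁ ≤ D) :
    nJ n D₁ ≤ nJ n D :=
  sSup_le_sSup (nMax_subset hA hAD₁ hD₁)

/-- Membership in `nMax` from equal order with a member. -/
theorem mem_nMax_of_card_eq {A A' : Subgroup G} (hA : A ∈ nMax n D) (hA' : A' ∈ nAb n D)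
    (hc : Nat.card A' = Nat.card A) : A' ∈ nMax n D :=
  ⟨hA', fun B hB => hc ▸ hA.2 B hB⟩

/-! ### Equivariance -/

section Equivariance

variable {G' : Type*} [Group G']

theorem map_symm_map (φ : G ≃* G') (D : Subgroup G) :
    (D.map φ.toMonoidHom).map φ.symm.toMonoidHom = D := by
  rw [Subgroup.map_map]
  have : φ.symm.toMonoidHom.comp φ.toMonoidHom = MonoidHom.id G := by ext x; simp
  rw [this, Subgroup.map_id]

theorem nAb_map (φ : G ≃* G') {A : Subgroup G} (hA : A ∈ nAb n D) :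
    A.map φ.toMonoidHom ∈ nAb n (D.map φ.toMonoidHom) := by
  have := hA.2.1
  refine ⟨Subgroup.map_mono hA.1, Subgroup.map_isMulCommutative _ _, ?_⟩
  rintro _ ⟨a, ha, rfl⟩
  rw [← map_pow, hA.2.2 a ha, map_one]

theorem nMax_map (φ : G ≃* G') {A : Subgroup G} (hA : A ∈ nMax n D) :
    A.map φ.toMonoidHom ∈ nMax n (D.map φ.toMonoidHom) := by
  refine ⟨nAb_map φ hA.1, fun B hB => ?_⟩
  have h1 := nAb_map φ.symm hB
  rw [map_symm_map] at h1
  have h2 := hA.2 _ h1
  rw [Subgroup.card_map_of_injective φ.symm.injective] at h2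
  rw [Subgroup.card_map_of_injective φ.injective]
  exact h2

theorem nJ_map_le (φ : G ≃* G') (n : ℕ) (D : Subgroup G) :
    (nJ n D).map φ.toMonoidHom ≤ nJ n (D.map φ.toMonoidHom) := by
  unfold nJ
  rw [Subgroup.map_le_iff_le_comap]
  apply sSup_le
  intro A hA
  rw [← Subgroup.map_le_iff_le_comap]
  exact le_sSup (nMax_map φ hA)

theorem nJ_map (φ : G ≃* G') (n : ℕ) (D : Subgroup G) :
    (nJ n D).map φ.toMonoidHom = nJ n (D.map φ.toMonoidHom) := by
  apply le_antisymm (nJ_map_le φ n D)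
  have h := nJ_map_le φ.symm n (D.map φ.toMonoidHom)
  rw [map_symm_map] at h
  intro x hx
  exact ⟨φ.symm x, h ⟨x, hx, rfl⟩, by simp⟩

theorem nZ_map_le (φ : G ≃* G') (n : ℕ) (D : Subgroup G) :
    (nZ n D).map φ.toMonoidHom ≤ nZ n (D.map φ.toMonoidHom) := by
  rintro _ ⟨z, hz, rfl⟩
  refine ⟨nJ_map_le φ n D ⟨z, hz.1, rfl⟩, ?_, ?_⟩
  · rw [Subgroup.mem_centralizer_iff]
    intro y hy
    rw [← nJ_map φ n D] at hy
    obtain ⟨y', hy', rfl⟩ := hy
    have := Subgroup.mem_centralizer_iff.mp hz.2.1 y' hy'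
    show φ y' * φ z = φ z * φ y'
    rw [← map_mul, ← map_mul, this]
  · show (φ z) ^ n = 1
    rw [← map_pow, hz.2.2, map_one]

theorem nZ_map (φ : G ≃* G') (n : ℕ) (D : Subgroup G) :
    (nZ n D).map φ.toMonoidHom = nZ n (D.map φ.toMonoidHom) := by
  apply le_antisymm (nZ_map_le φ n D)
  have h := nZ_map_le φ.symm n (D.map φ.toMonoidHom)
  rw [map_symm_map] at h
  intro x hx
  exact ⟨φ.symm x, h ⟨x, hx, rfl⟩, by simp⟩

end Equivariance

/-- Elements normalizing `D` normalize `nZ n D`. -/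
theorem normalizer_le_normalizer_nZ [Finite G] (n : ℕ) (D : Subgroup G) :
    Subgroup.normalizer (D : Set G) ≤ Subgroup.normalizer ((nZ n D : Subgroup G) : Set G) := by
  intro g hg
  apply mem_normalizer_of_conj_mem
  intro z hz
  have hD : D.map (MulAut.conj g).toMonoidHom = D := by
    apply le_antisymm
    · rintro _ ⟨x, hx, rfl⟩
      exact (Subgroup.mem_normalizer_iff.mp hg x).mp hx
    · intro x hx
      refine ⟨g⁻¹ * x * g, ?_, by simp [mul_assoc]⟩
      have := (Subgroup.mem_normalizer_iff.mp (inv_mem hg) x).mp hx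
      simpa using this
  have h1 := nZ_map_le (MulAut.conj g) n D ⟨z, hz, rfl⟩
  rw [hD] at h1
  simpa using h1

/-- Elements normalizing `D` normalize `nJ n D`. -/
theorem normalizer_le_normalizer_nJ [Finite G] (n : ℕ) (D : Subgroup G) :
    Subgroup.normalizer (D : Set G) ≤ Subgroup.normalizer ((nJ n D : Subgroup G) : Set G) := by
  intro g hg
  apply mem_normalizer_of_conj_mem
  intro z hz
  have hD : D.map (MulAut.conj g).toMonoidHom = D := by
    apply le_antisymm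
    · rintro _ ⟨x, hx, rfl⟩
      exact (Subgroup.mem_normalizer_iff.mp hg x).mp hx
    · intro x hx
      refine ⟨g⁻¹ * x * g, ?_, by simp [mul_assoc]⟩
      have := (Subgroup.mem_normalizer_iff.mp (inv_mem hg) x).mp hx
      simpa using this
  have h1 := nJ_map_le (MulAut.conj g) n D ⟨z, hz, rfl⟩
  rw [hD] at h1
  simpa using h1

end NFamily

/-! ### Links with the Prelude definitions -/

section Links

variable {G : Type*} [Group G]

theorem map_subtype_mem_nMax_zero {D : Subgroup G} {A' : Subgroup ↥D}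
    (hA' : A' ∈ Cfsg.maxAbelianSubgroups ↥D) : A'.map D.subtype ∈ nMax 0 D := by
  have := hA'.1
  refine ⟨⟨Subgroup.map_subtype_le _, Subgroup.map_isMulCommutative _ _, fun _ _ => pow_zero _⟩, ?_⟩
  intro B hB
  have := hB.2.1
  have h1 := hA'.2 (B.subgroupOf D) (Subgroup.subgroupOf_isMulCommutative _ _)
  rw [Nat.card_congr (Subgroup.subgroupOfEquivOfLe hB.1).toEquiv] at h1
  rw [Subgroup.card_subtype]
  exact h1

theorem subgroupOf_mem_maxAbelian {D : Subgroup G} {A : Subgroup G} (hA : A ∈ nMax 0 D) :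
    A.subgroupOf D ∈ Cfsg.maxAbelianSubgroups ↥D := by
  have := hA.1.2.1
  refine ⟨Subgroup.subgroupOf_isMulCommutative _ _, ?_⟩
  intro B hB
  have h1 := hA.2 (B.map D.subtype)
    ⟨Subgroup.map_subtype_le _, Subgroup.map_isMulCommutative _ _, fun _ _ => pow_zero _⟩
  rw [Subgroup.card_subtype] at h1
  rw [Nat.card_congr (Subgroup.subgroupOfEquivOfLe hA.1.1).toEquiv]
  exact h1

theorem thompsonSubgroupAOf_eq (D : Subgroup G) : Cfsg.thompsonSubgroupAOf D = nJ 0 D := by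
  apply le_antisymm
  · unfold Cfsg.thompsonSubgroupAOf Cfsg.thompsonSubgroupA
    rw [Subgroup.map_le_iff_le_comap]
    apply sSup_le
    intro A' hA'
    rw [← Subgroup.map_le_iff_le_comap]
    exact le_sSup (map_subtype_mem_nMax_zero hA')
  · apply sSup_le
    intro A hA
    have h2 : A.subgroupOf D ≤ Cfsg.thompsonSubgroupA ↥D := le_sSup (subgroupOf_mem_maxAbelian hA)
    have h3 := Subgroup.map_mono (f := D.subtype) h2
    rw [Subgroup.map_subgroupOf_eq_of_le hA.1.1] at h3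
    exact h3

/-- `Z(J(D))` (abelian version) is `nZ 0 D`. -/
theorem centerThompsonAOf_eq (D : Subgroup G) : Cfsg.centerThompsonAOf D = nZ 0 D := by
  unfold Cfsg.centerThompsonAOf
  rw [thompsonSubgroupAOf_eq]
  ext z
  rw [Subgroup.mem_inf, mem_nZ]
  simp

theorem map_subtype_mem_nMax_p {p : ℕ} {D : Subgroup G} {A' : Subgroup ↥D}
    (hA' : A' ∈ Cfsg.maxElementaryAbelianSubgroups p ↥D) : A'.map D.subtype ∈ nMax p D := by
  have := hA'.1.1
  refine ⟨⟨Subgroup.map_subtype_le _, Subgroup.map_isMulCommutative _ _, ?_⟩, ?_⟩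
  · rintro _ ⟨a, ha, rfl⟩
    have := hA'.1.2 a ha
    rw [← map_pow, this, map_one]
  intro B hB
  have := hB.2.1
  have h1 := hA'.2 (B.subgroupOf D) ⟨Subgroup.subgroupOf_isMulCommutative _ _, ?_⟩
  · rw [Nat.card_congr (Subgroup.subgroupOfEquivOfLe hB.1).toEquiv] at h1
    rw [Subgroup.card_subtype]
    exact h1
  · intro a ha
    apply Subtype.ext
    rw [Subgroup.coe_pow, Subgroup.coe_one]
    exact hB.2.2 _ (Subgroup.mem_subgroupOf.mp ha)

theorem subgroupOf_mem_maxElementaryAbelian {p : ℕ} {D : Subgroup G} {A : Subgroup G}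
    (hA : A ∈ nMax p D) : A.subgroupOf D ∈ Cfsg.maxElementaryAbelianSubgroups p ↥D := by
  have := hA.1.2.1
  refine ⟨⟨Subgroup.subgroupOf_isMulCommutative _ _, ?_⟩, ?_⟩
  · intro a ha
    apply Subtype.ext
    rw [Subgroup.coe_pow, Subgroup.coe_one]
    exact hA.1.2.2 _ (Subgroup.mem_subgroupOf.mp ha)
  intro B hB
  have := hB.1
  have h1 := hA.2 (B.map D.subtype) ⟨Subgroup.map_subtype_le _, Subgroup.map_isMulCommutative _ _, ?_⟩
  · rw [Subgroup.card_subtype] at h1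
    rw [Nat.card_congr (Subgroup.subgroupOfEquivOfLe hA.1.1).toEquiv]
    exact h1
  · rintro _ ⟨a, ha, rfl⟩
    have := hB.2 a ha
    rw [← map_pow, this, map_one]

theorem thompsonSubgroupOf_eq (p : ℕ) (D : Subgroup G) : Cfsg.thompsonSubgroupOf p D = nJ p D := by
  apply le_antisymm
  · unfold Cfsg.thompsonSubgroupOf Cfsg.thompsonSubgroup
    rw [Subgroup.map_le_iff_le_comap]
    apply sSup_le
    intro A' hA'
    rw [← Subgroup.map_le_iff_le_comap]
    exact le_sSup (map_subtype_mem_nMax_p hA')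
  · apply sSup_le
    intro A hA
    have h2 : A.subgroupOf D ≤ Cfsg.thompsonSubgroup p ↥D :=
      le_sSup (subgroupOf_mem_maxElementaryAbelian hA)
    have h3 := Subgroup.map_mono (f := D.subtype) h2
    rw [Subgroup.map_subgroupOf_eq_of_le hA.1.1] at h3
    exact h3

theorem center_comm (J : Subgroup G) :
    IsMulCommutative ↥(J ⊓ Subgroup.centralizer (J : Set G)) := by
  rw [← Subgroup.le_centralizer_iff_isMulCommutative]
  exact inf_le_right.trans (Subgroup.centralizer_le inf_le_left)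

/-- `Ω₁(Z(J_e(D)))` is `nZ p D`. -/
theorem omegaOne_centerThompsonOf_eq (p : ℕ) (D : Subgroup G) :
    Cfsg.omegaOne p (Cfsg.centerThompsonOf p D) = nZ p D := by
  unfold Cfsg.centerThompsonOf
  rw [thompsonSubgroupOf_eq]
  ext z
  rw [mem_omegaOne_iff (center_comm _), Subgroup.mem_inf, mem_nZ, and_assoc]

theorem map_center_subtype (D : Subgroup G) (J' : Subgroup ↥D) :
    (J' ⊓ Subgroup.centralizer (J' : Set ↥D)).map D.subtype =
      J'.map D.subtype ⊓ Subgroup.centralizer ((J'.map D.subtype : Subgroup G) : Set G) := by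
  ext x
  constructor
  · rintro ⟨y, hy, rfl⟩
    have hy : y ∈ J' ⊓ Subgroup.centralizer (J' : Set ↥D) := hy
    rw [Subgroup.mem_inf] at hy ⊢
    refine ⟨⟨y, hy.1, rfl⟩, ?_⟩
    rw [Subgroup.mem_centralizer_iff]
    rintro _ ⟨j, hj, rfl⟩
    have := Subgroup.mem_centralizer_iff.mp hy.2 j hj
    exact congrArg Subtype.val this
  · intro hx
    rw [Subgroup.mem_inf] at hx
    obtain ⟨⟨y, hy, rfl⟩, hx2⟩ := hx
    refine ⟨y, Subgroup.mem_inf.mpr ⟨hy, ?_⟩, rfl⟩
    rw [Subgroup.mem_centralizer_iff]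
    intro j hj
    have := Subgroup.mem_centralizer_iff.mp hx2 (D.subtype j) ⟨j, hj, rfl⟩
    exact Subtype.ext this

/-- `Ω₁(Z(J_e(D)))` computed inside `D` and pushed to `G` is `nZ p D`. -/
theorem omegaCenterThompson_map_eq (p : ℕ) (D : Subgroup G) :
    (Cfsg.omegaCenterThompson p ↥D).map D.subtype = nZ p D := by
  unfold Cfsg.omegaCenterThompson
  rw [omegaOne_map_of_injective p _ D.subtype_injective, map_center_subtype]
  exact omegaOne_centerThompsonOf_eq p D

end Links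

end Cfsg.Agent.H58.Q46.H29
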